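import Cfsg.Agent.Lib.Helper57.OE.Rows8
import Cfsg.Agent.Lib.Helper57.OE.Defs2
import Cfsg.Agent.Lib.Helper79.Asch.D5
import Cfsg.Agent.Lib.Helper99.Sp.T3b
import Cfsg.Agent.Lib.Helper8.OAsch.B0d
import Cfsg.Agent.Lib.Helper12.OE.YCD
import Cfsg.Agent.Lib.Helper62.OE.YT6
import Cfsg.Agent.Lib.Helper62.OE.YAL
import Cfsg.Agent.Lib.Helper62.OE.Y4
import Cfsg.Agent.Lib.Helper12.OE.YT1
import Cfsg.Agent.Lib.Helper22.OE.YT1a
import Cfsg.Agent.Lib.Helper30.OE.G10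

set_option autoImplicit false
set_option linter.unusedSectionVars false

/-! # Subgroups of `Ω₁₂⁺(q)`: the core dichotomy -/

namespace Cfsg.Agent.Lib.Helper99.OE

open Cfsg Cfsg.Geo Matrix Cfsg.Agent.Lib.Helper13.Asch Cfsg.Agent.Lib.Helper90.Sp
open Cfsg.Agent.Lib.Helper1.Sp Cfsg.Agent.Lib.Helper67.Sp Cfsg.Agent.Lib.Helper95.Sp
open Cfsg.Agent.Lib.Helper65.Sp Cfsg.Agent.Lib.Helper91.Sp
open Cfsg.Agent.Lib.Helper72.OE Cfsg.Agent.Lib.Helper12.OE Cfsg.Agent.Lib.Helper35.OE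
open Cfsg.Agent.Lib.Helper62.OE Cfsg.Agent.Lib.Helper57.OE Cfsg.Agent.Lib.Helper99.Sp
open scoped Kronecker MatrixGroups commutatorElement

variable {ι : Type} [Fintype ι] [DecidableEq ι] {F : Type*} [Field F] {Q : (ι → F) → F}

/-- the tensor decomposition `3 ⊗ 4` in Gram form -/
def RT34 (Q : (ι → F) → F) (H : Subgroup (GL ι F)) : Prop :=
  ∃ (e : ι ≃ Fin 3 × Fin 4) (P : GL ι F) (G₁ : Matrix (Fin 3) (Fin 3) F)
    (G₂ : Matrix (Fin 4) (Fin 4) F), TensGram (QuadraticMap.polar Q) e P G₁ G₂ ∧ IsUnit G₁.det ∧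
    IsUnit G₂.det ∧ G₁ᵀ = G₁ ∧ G₂ᵀ = G₂ ∧ H ≤ tensorProductSubgroup 3 4 e P

/-- the raw list of geometric alternatives in plus type -/
def RawP [Fintype F] (Q : (ι → F) → F) (H : Subgroup (GL ι F)) : Prop :=
  RSing Q H ∨ RNd Q H ∨ (¬ Odd (Fintype.card F) ∧ RVec Q H) ∨ RDec Q H ∨ RPair Q H ∨ RField H ∨
    RAlt Q H ∨ RSub Q H

/-- a tensor decomposition `2 ⊗ b` -/
theorem o_tensor2_gram [Fintype F] [Nonempty ι] (hι : 2 < Fintype.card ι)
    (hQ : IsNondegenerateQuadraticForm Q) {H : Subgroup (GL ι F)}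
    (hH : FixesQuadForm (matrixSet H) Q) (hirr : ActsIrreducibly (matrixSet H)) {b : ℕ}
    (hb : 2 ≤ b) (e : ι ≃ Fin 2 × Fin b) (P : GL ι F)
    {G₁ : Matrix (Fin 2) (Fin 2) F} {G₂ : Matrix (Fin b) (Fin b) F}
    (hG : TensGram (QuadraticMap.polar Q) e P G₁ G₂) (h1 : IsUnit G₁.det) (h2 : IsUnit G₂.det)
    (hs : (G₁ᵀ = G₁ ∧ G₂ᵀ = G₂) ∨ (G₁ᵀ = -G₁ ∧ G₂ᵀ = -G₂))
    (hHt : H ≤ tensorProductSubgroup 2 b e P) :
    RPair Q H ∨ SqrtJ H ∨ RAlt Q H := by
  have hHt' : H ≤ tensorProductSubgroup b 2 (e.trans (Equiv.prodComm _ _)) P := by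
    rw [← Cfsg.Agent.Lib.Helper35.Asch.tensor_swap]; exact hHt
  have hf := fixesForm_polar hH
  by_cases hodd : Odd (Fintype.card F)
  · have h20 : (2 : F) ≠ 0 := fun h => (two_eq_zero_iff.1 h) hodd
    rcases hs with ⟨hs1, hs2⟩ | ⟨hs1, hs2⟩
    · rcases o_tensor_two_pair h20 hQ hι hH hirr e P hG h1 h2 hs1 hHt with h | h
      · exact Or.inl h
      · exact Or.inr (Or.inl h)
    · refine Or.inr (Or.inr (ralt_of_gram e P hG h1 h2 hs1 hs2 (skew_diag h20 G₁ hs1)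
        (skew_diag h20 G₂ hs2) ?_ hHt))
      intro x y
      have h3 := two_mul_Q hQ (pureV e P x y)
      rw [tensGram_pure hG, skew_self h20 G₁ hs1, zero_mul] at h3
      exact (mul_eq_zero.1 h3).resolve_left h20
  · have h20 : (2 : F) = 0 := two_eq_zero_iff.2 hodd
    have hneg : ∀ {n : ℕ} (M : Matrix (Fin n) (Fin n) F), -M = M := by
      intro n M
      have : M + M = 0 := by rw [← two_smul F M, h20, zero_smul]
      exact neg_eq_of_add_eq_zero_left this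
    have hs1 : G₁ᵀ = G₁ := by rcases hs with ⟨h, -⟩ | ⟨h, -⟩ <;> simpa [hneg] using h
    have hs2 : G₂ᵀ = G₂ := by rcases hs with ⟨-, h⟩ | ⟨-, h⟩ <;> simpa [hneg] using h
    have hd2 := diag_zero_of_irr h20 hf hirr hb e P hG h1 h2 hs2 hHt
    have hd1 := diag_zero_of_irr h20 hf hirr (le_refl 2) _ P
      (Cfsg.Agent.Lib.Helper65.Sp.TensGram.swap hG) h2 h1 hs1 hHt'
    have hpure := sing_pure_of_alternating h20 (by omega) hQ hH hirr e P hG hs1 hs2 hd1 hd2 hHt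
    exact Or.inr (Or.inr (ralt_of_gram e P hG h1 h2 (by rw [hs1, hneg]) (by rw [hs2, hneg]) hd1 hd2
      hpure hHt))

theorem dims_cases12 {a b : ℕ} (ha : 2 ≤ a) (hb : 2 ≤ b) (h : a * b = 12) :
    (a = 2 ∧ b = 6) ∨ (a = 6 ∧ b = 2) ∨ (a = 3 ∧ b = 4) ∨ (a = 4 ∧ b = 3) := by
  have ha6 : a ≤ 6 := by nlinarith
  interval_cases a <;> omega

/-- TT (assembly) -/
theorem o_tensor12 [Fintype F] [Nonempty ι] (hι : Fintype.card ι = 12)
    (hQ : IsNondegenerateQuadraticForm Q) {H : Subgroup (GL ι F)}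
    (hH : FixesQuadForm (matrixSet H) Q) (hirr : ActsIrreducibly (matrixSet H)) {a b : ℕ}
    (ha : 2 ≤ a) (hb : 2 ≤ b) (e : ι ≃ Fin a × Fin b) (P : GL ι F)
    (hHt : H ≤ tensorProductSubgroup a b e P)
    (hadj : ∀ X : Matrix (Fin a) (Fin a) F, ∃ Y : Matrix (Fin a) (Fin a) F,
      ∀ u v, QuadraticMap.polar Q (embL e P X *ᵥ u) v = QuadraticMap.polar Q u (embL e P Y *ᵥ v)) :
    RPair Q H ∨ SqrtJ H ∨ RAlt Q H ∨ (Odd (Fintype.card F) ∧ RT34 Q H) := by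
  obtain ⟨G₁, G₂, hG, h1, h2, hs⟩ := tensGram_of_adj_symm (polar_symmForm hQ) e P hadj
  have hcard : a * b = 12 := by
    have := Fintype.card_congr e
    rw [hι] at this
    simpa using this.symm
  have hHt' : H ≤ tensorProductSubgroup b a (e.trans (Equiv.prodComm _ _)) P := by
    rw [← Cfsg.Agent.Lib.Helper35.Asch.tensor_swap]; exact hHt
  have hf := fixesForm_polar hH
  have hfin : RPair Q H ∨ SqrtJ H ∨ RAlt Q H →
      RPair Q H ∨ SqrtJ H ∨ RAlt Q H ∨ (Odd (Fintype.card F) ∧ RT34 Q H) := by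
    rintro (h | h | h)
    · exact Or.inl h
    · exact Or.inr (Or.inl h)
    · exact Or.inr (Or.inr (Or.inl h))
  rcases dims_cases12 ha hb hcard with ⟨rfl, rfl⟩ | ⟨rfl, rfl⟩ | ⟨rfl, rfl⟩ | ⟨rfl, rfl⟩
  · exact hfin (o_tensor2_gram (by omega) hQ hH hirr (by norm_num) e P hG h1 h2 hs hHt)
  · exact hfin (o_tensor2_gram (by omega) hQ hH hirr (by norm_num) _ P
      (Cfsg.Agent.Lib.Helper65.Sp.TensGram.swap hG) h2 h1
      (by rcases hs with ⟨x, y⟩ | ⟨x, y⟩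
          · exact Or.inl ⟨y, x⟩
          · exact Or.inr ⟨y, x⟩) hHt')
  · by_cases hodd : Odd (Fintype.card F)
    · have h20 : (2 : F) ≠ 0 := fun h => (two_eq_zero_iff.1 h) hodd
      rcases hs with ⟨hs1, hs2⟩ | ⟨hs1, hs2⟩
      · exact Or.inr (Or.inr (Or.inr ⟨hodd, e, P, G₁, G₂, hG, h1, h2, hs1, hs2, hHt⟩))
      · exact (no_alt_three G₁ h1 hs1 (skew_diag h20 G₁ hs1)).elim
    · have h20 : (2 : F) = 0 := two_eq_zero_iff.2 hodd
      have hneg : ∀ {n : ℕ} (M : Matrix (Fin n) (Fin n) F), -M = M := by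
        intro n M
        have : M + M = 0 := by rw [← two_smul F M, h20, zero_smul]
        exact neg_eq_of_add_eq_zero_left this
      have hs1 : G₁ᵀ = G₁ := by rcases hs with ⟨h, -⟩ | ⟨h, -⟩ <;> simpa [hneg] using h
      have hd1 := diag_zero_of_irr h20 hf hirr ha _ P
        (Cfsg.Agent.Lib.Helper65.Sp.TensGram.swap hG) h2 h1 hs1 hHt'
      exact (no_alt_three G₁ h1 (by rw [hs1, hneg]) hd1).elim
  · by_cases hodd : Odd (Fintype.card F)
    · have h20 : (2 : F) ≠ 0 := fun h => (two_eq_zero_iff.1 h) hodd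
      rcases hs with ⟨hs1, hs2⟩ | ⟨hs1, hs2⟩
      · exact Or.inr (Or.inr (Or.inr ⟨hodd, _, P, G₂, G₁,
          Cfsg.Agent.Lib.Helper65.Sp.TensGram.swap hG, h2, h1, hs2, hs1, hHt'⟩))
      · exact (no_alt_three G₂ h2 hs2 (skew_diag h20 G₂ hs2)).elim
    · have h20 : (2 : F) = 0 := two_eq_zero_iff.2 hodd
      have hneg : ∀ {n : ℕ} (M : Matrix (Fin n) (Fin n) F), -M = M := by
        intro n M
        have : M + M = 0 := by rw [← two_smul F M, h20, zero_smul]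
        exact neg_eq_of_add_eq_zero_left this
      have hs2 : G₂ᵀ = G₂ := by rcases hs with ⟨-, h⟩ | ⟨-, h⟩ <;> simpa [hneg] using h
      have hd2 := diag_zero_of_irr h20 hf hirr hb e P hG h1 h2 hs2 hHt
      exact (no_alt_three G₂ h2 (by rw [hs2, hneg]) hd2).elim


theorem adj_embL {f : (ι → F) → (ι → F) → F} {a b : ℕ} {e : ι ≃ Fin a × Fin b} {P : GL ι F}
    {G₁ : Matrix (Fin a) (Fin a) F} {G₂ : Matrix (Fin b) (Fin b) F} (hG : TensGram f e P G₁ G₂)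
    {Z Z' : Matrix (Fin a) (Fin a) F} (hZ : Zᵀ * G₁ = G₁ * Z') (u v : ι → F) :
    f (embL e P Z *ᵥ u) v = f u (embL e P Z' *ᵥ v) := by
  obtain ⟨u', rfl⟩ := exists_coord e P u
  obtain ⟨v', rfl⟩ := exists_coord e P v
  have e1 : embL e P Z = cj e P (Z ⊗ₖ (1 : Matrix (Fin b) (Fin b) F)) := rfl
  have e2 : embL e P Z' = cj e P (Z' ⊗ₖ (1 : Matrix (Fin b) (Fin b) F)) := rfl
  have hK : (Z ⊗ₖ (1 : Matrix (Fin b) (Fin b) F))ᵀ * (G₁ ⊗ₖ G₂) =
      (G₁ ⊗ₖ G₂) * (Z' ⊗ₖ (1 : Matrix (Fin b) (Fin b) F)) := by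
    rw [← Matrix.kroneckerMap_transpose, ← Matrix.mul_kronecker_mul, ← Matrix.mul_kronecker_mul,
      Matrix.transpose_one, Matrix.one_mul, Matrix.mul_one, hZ]
  rw [e1, e2, cj_mulVec, cj_mulVec, hG, hG, formOfGram_eq_gform, formOfGram_eq_gform]
  simp only [gform, RingHom.id_apply]
  rw [Matrix.mulVec_mulVec, ← hK, ← Matrix.mulVec_mulVec, Matrix.dotProduct_mulVec u',
    Matrix.vecMul_transpose]

/-- the determinant of a similitude -/
theorem det_sq_of_similitude {n : ℕ} {G x : Matrix (Fin n) (Fin n) F} (hG : IsUnit G.det) {c : F}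
    (h : xᵀ * G * x = c • G) : x.det ^ 2 = c ^ n := by
  have h1 := congrArg Matrix.det h
  rw [Matrix.det_mul, Matrix.det_mul, Matrix.det_transpose, Matrix.det_smul, Fintype.card_fin] at h1
  exact mul_right_cancel₀ hG.ne_zero (by linear_combination h1)

/-- elimination of `3 ⊗ 4` -/
theorem tensor34_elim [Fintype F] [Nonempty ι] (h20 : (2 : F) ≠ 0) (hι : Fintype.card ι = 12)
    (hQ : IsNondegenerateQuadraticForm Q) (hplus : IsPlusTypeOn Q ⊤) {H : Subgroup (GL ι F)}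
    (hHΩ : H ≤ omegaGL Q) (hirr : ActsIrreducibly (matrixSet H)) (h : RT34 Q H) :
    RPair Q H ∨ SqrtJ H ∨ RAlt Q H := by
  obtain ⟨e, P, G₁, G₂, hG, h1, h2, hs1, hs2, hHt⟩ := h
  have hH := fixesQuad_of_le_omega hHΩ
  have hf := fixesForm_polar hH
  obtain ⟨ρ, hρadj, hρn⟩ := exists_quaternion_hom h20 G₂ hs2 h2
    (tensor_three_plus_of h20 hQ hplus e P hG h2
      (Cfsg.Agent.Lib.Helper22.OE.diag_three h20 G₁ hs1 h1)
      (fun a b c d => Cfsg.Agent.Lib.Helper30.OE.plus_of_isometric_pair hQ a b c d))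
  set e' : ι ≃ Fin 4 × Fin 3 := e.trans (Equiv.prodComm _ _) with he'
  have hG' : TensGram (QuadraticMap.polar Q) e' P G₂ G₁ :=
    Cfsg.Agent.Lib.Helper65.Sp.TensGram.swap hG
  have hHt' : H ≤ tensorProductSubgroup 4 3 e' P := by
    rw [he', ← Cfsg.Agent.Lib.Helper35.Asch.tensor_swap]; exact hHt
  obtain ⟨b, e₂, P₂, hψ⟩ := Cfsg.Agent.Lib.Helper79.Asch.matrix_rep_std
    ((D5aux.embLHom e' P).comp ρ)
  have hψ' : ∀ X, embL e' P (ρ X) = embL e₂ P₂ X := fun X => hψ X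
  have hb : 2 * b = 12 := by
    have := Fintype.card_congr e₂
    rw [hι] at this
    simpa using this.symm
  have hHt₂ : H ≤ tensorProductSubgroup 2 b e₂ P₂ := by
    intro h hh
    apply Cfsg.Agent.Lib.Helper35.Asch.mem_tensorProductSubgroup
    intro X
    obtain ⟨x, y, c, hxy, hc1, hc2⟩ := tens_similitude e' P hG' h2 h1 h (hHt' hh)
      (hf (h : Matrix ι ι F) ⟨h, hh, rfl⟩)
    have hcj : (h : Matrix ι ι F) = cj e' P ((x : Matrix _ _ F) ⊗ₖ (y : Matrix _ _ F)) := hxy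
    have hdet : (h : Matrix ι ι F).det = 1 :=
      Cfsg.Agent.Lib.Helper8.OAsch.det_eq_one_of_mem_omegaGL (hHΩ hh)
    have hdk : (x : Matrix (Fin 4) (Fin 4) F).det ^ 3 * (y : Matrix (Fin 3) (Fin 3) F).det ^ 4 = 1 := by
      have h3 : (h : Matrix ι ι F).det =
          ((x : Matrix (Fin 4) (Fin 4) F) ⊗ₖ (y : Matrix (Fin 3) (Fin 3) F)).det := by
        rw [hxy, Matrix.det_mul, Matrix.det_mul, Matrix.det_reindex_self, mul_right_comm,
          ← Matrix.det_mul, ← Units.val_mul, mul_inv_cancel, Units.val_one, Matrix.det_one, one_mul]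
      rw [hdet, Matrix.det_kronecker] at h3
      simpa using h3.symm
    have hx2 := det_sq_of_similitude h2 hc1
    have hy2 := det_sq_of_similitude h1 hc2
    have hc0 : (c : F) ≠ 0 := c.ne_zero
    have hci : ((c⁻¹ : Fˣ) : F) * (c : F) = 1 := by rw [← Units.val_mul, inv_mul_cancel, Units.val_one]
    have hdx : (x : Matrix (Fin 4) (Fin 4) F).det = (c : F) ^ 2 := by
      set X := (x : Matrix (Fin 4) (Fin 4) F).det
      set Y := (y : Matrix (Fin 3) (Fin 3) F).det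
      set d := ((c⁻¹ : Fˣ) : F)
      have e1 : X * (c : F) ^ 4 * d ^ 6 = 1 := by
        calc X * (c : F) ^ 4 * d ^ 6 = X * X ^ 2 * (Y ^ 2) ^ 2 := by rw [hx2, hy2]; ring
          _ = X ^ 3 * Y ^ 4 := by ring
          _ = 1 := hdk
      calc X = X * (c : F) ^ 4 * d ^ 6 * (c : F) ^ 2 * ((d * c) ^ 0) := by
            have : X * (c : F) ^ 4 * d ^ 6 * (c : F) ^ 2 = X * (d * c) ^ 6 := by ring
            rw [this, hci]; ring
        _ = (c : F) ^ 2 := by rw [e1]; ring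
    obtain ⟨X', hX'⟩ := hρn x c hc1 hdx X
    refine ⟨X', ?_⟩
    rw [← hψ', ← hψ', ← hX']
    have hinv : ((h⁻¹ : GL ι F) : Matrix ι ι F) =
        cj e' P (((x⁻¹ : GL _ F) : Matrix _ _ F) ⊗ₖ ((y⁻¹ : GL _ F) : Matrix _ _ F)) := by
      have hm : (h : Matrix ι ι F) *
          cj e' P (((x⁻¹ : GL _ F) : Matrix _ _ F) ⊗ₖ ((y⁻¹ : GL _ F) : Matrix _ _ F)) = 1 := by
        rw [hcj, cj_mul, ← Matrix.mul_kronecker_mul, ← Units.val_mul, ← Units.val_mul,
          mul_inv_cancel, mul_inv_cancel, Units.val_one, Units.val_one, Matrix.one_kronecker_one,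
          cj_one]
      calc ((h⁻¹ : GL ι F) : Matrix ι ι F) = ((h⁻¹ : GL ι F) : Matrix ι ι F) * ((h : Matrix ι ι F) *
            cj e' P (((x⁻¹ : GL _ F) : Matrix _ _ F) ⊗ₖ ((y⁻¹ : GL _ F) : Matrix _ _ F))) := by
            rw [hm, mul_one]
        _ = _ := by
            rw [← mul_assoc, ← Units.val_mul, inv_mul_cancel, Units.val_one, one_mul]
    have e1 : ∀ Z : Matrix (Fin 4) (Fin 4) F,
        embL e' P Z = cj e' P (Z ⊗ₖ (1 : Matrix (Fin 3) (Fin 3) F)) := fun Z => rfl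
    rw [hinv, hcj, e1, e1, cj_mul, cj_mul, ← Matrix.mul_kronecker_mul, ← Matrix.mul_kronecker_mul,
      Matrix.mul_one, ← Units.val_mul, mul_inv_cancel, Units.val_one]
  have hadj : ∀ X : Matrix (Fin 2) (Fin 2) F, ∃ Y : Matrix (Fin 2) (Fin 2) F,
      ∀ u v, QuadraticMap.polar Q (embL e₂ P₂ X *ᵥ u) v =
        QuadraticMap.polar Q u (embL e₂ P₂ Y *ᵥ v) := by
    intro X
    obtain ⟨X', hX'⟩ := hρadj X
    refine ⟨X', fun u v => ?_⟩
    rw [← hψ', ← hψ']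
    exact adj_embL hG' hX' u v
  obtain ⟨K₁, K₂, hK, k1, k2, ks⟩ := tensGram_of_adj_symm (polar_symmForm hQ) e₂ P₂ hadj
  exact o_tensor2_gram (by omega) hQ hH hirr (by omega) e₂ P₂ hK k1 k2 ks hHt₂



/-- TM (assembly) -/
theorem o_tensor_main12 [Fintype F] [Nonempty ι] (hι : Fintype.card ι = 12)
    (hQ : IsNondegenerateQuadraticForm Q) (hplus : IsPlusTypeOn Q ⊤) {H N : Subgroup (GL ι F)}
    (hHΩ : H ≤ omegaGL Q) (hirr : ActsIrreducibly (matrixSet H)) (hNH : N ≤ H)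
    (hN : Nrm H N)
    (hcentre : ∀ z ∈ env N, (∀ a ∈ env N, z * a = a * z) → ∃ c : F, z = c • 1)
    (hns : ¬ N ≤ scalars ι F) (hnt : env N ≠ ⊤) :
    RPair Q H ∨ SqrtJ H ∨ RAlt Q H := by
  have hH := fixesQuad_of_le_omega hHΩ
  obtain ⟨a, b, e, P, ha, hb, hA, hHt⟩ := tensor_structure_of_normal hirr hN hcentre hns hnt
  have h4 : RPair Q H ∨ SqrtJ H ∨ RAlt Q H ∨ (Odd (Fintype.card F) ∧ RT34 Q H) := by
    refine o_tensor12 hι hQ hH hirr ha hb e P hHt ?_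
    intro X
    obtain ⟨k', hk', hk⟩ := env_adjClosed hQ.polar_bilinear
      (fixes_mono hNH (fixesForm_polar hH)) _ ((hA _).2 ⟨X, rfl⟩)
    obtain ⟨Y, rfl⟩ := (hA _).1 hk'
    exact ⟨Y, hk⟩
  rcases h4 with h | h | h | ⟨hodd, h⟩
  · exact Or.inl h
  · exact Or.inr (Or.inl h)
  · exact Or.inr (Or.inr h)
  · exact tensor34_elim (fun h => (two_eq_zero_iff.1 h) hodd) hι hQ hplus hHΩ hirr h

/-- G (assembly) -/
theorem o_qp12 [Fintype F] (hι : Fintype.card ι = 12)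
    (hQ : IsNondegenerateQuadraticForm Q) (hplus : IsPlusTypeOn Q ⊤) {H : Subgroup (GL ι F)}
    (hHΩ : H ≤ omegaGL Q) :
    RawP Q H ∨ (ActsIrreducibly (matrixSet H) ∧ QP H) := by
  have : Nonempty ι := Fintype.card_pos_iff.1 (by omega)
  have hH := fixesQuad_of_le_omega hHΩ
  by_cases hirr : ActsIrreducibly (matrixSet H)
  · by_cases hc : RawP Q H
    · exact Or.inl hc
    refine Or.inr ⟨hirr, fun N hNH hN => ?_⟩
    by_contra hcon
    push Not at hcon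
    obtain ⟨hns, hnt⟩ := hcon
    obtain ⟨hZ, hcomm⟩ := cenv_props hN
    have hadj := cenv_adjClosed_symm (polar_symmForm hQ) (fixes_mono hNH (fixesForm_polar hH))
    rcases o_comm_dichotomy_pair hQ (by omega) hH hirr (cenv N) hZ hcomm hadj with h | h | hinv
    · exact hc (Or.inr (Or.inr (Or.inr (Or.inl h))))
    · exact hc (Or.inr (Or.inr (Or.inr (Or.inr (Or.inl h)))))
    by_cases hne : ∃ x ∈ cenv N, ∀ c : F, x ≠ c • 1
    · exact hc (Or.inr (Or.inr (Or.inr (Or.inr (Or.inr (Or.inl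
        (Cfsg.Agent.Lib.Helper58.Asch.prime_subfield H (cenv N) hZ hcomm hinv hne)))))))
    · push Not at hne
      have hcentre : ∀ z ∈ env N, (∀ a ∈ env N, z * a = a * z) → ∃ c : F, z = c • 1 := by
        intro z hz hza
        refine hne z ⟨hz, ?_⟩
        refine (Subalgebra.mem_centralizer_iff F).2 ?_
        intro a ha
        exact (hza a ha).symm
      rcases o_tensor_main12 hι hQ hplus hHΩ hirr hNH hN hcentre hns hnt with h | h | h
      · exact hc (Or.inr (Or.inr (Or.inr (Or.inr (Or.inl h)))))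
      · obtain ⟨K, hK, hHK⟩ := rfield_of_sqrtJ h
        exact hc (Or.inr (Or.inr (Or.inr (Or.inr (Or.inr (Or.inl
          ⟨2, K, Nat.prime_two, hK, hHK⟩))))))
      · exact hc (Or.inr (Or.inr (Or.inr (Or.inr (Or.inr (Or.inr (Or.inl h)))))))
  · rcases o_reducible hQ hH hirr with h | h | h
    · exact Or.inl (Or.inl h)
    · exact Or.inl (Or.inr (Or.inl h))
    · exact Or.inl (Or.inr (Or.inr (Or.inl h)))

/-- H (assembly): no extraspecial case in dimension 12 -/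
theorem o_c6_12 [Fintype F] (hι : Fintype.card ι = 12)
    (hQ : IsNondegenerateQuadraticForm Q) {H N : Subgroup (GL ι F)}
    (hH : FixesQuadForm (matrixSet H) Q) (hN : MinNormal H N) (henv : env N = ⊤)
    (hab : ⁅N, N⁆ ≤ scalars ι F) : False := by
  have : Nonempty ι := Fintype.card_pos_iff.1 (by omega)
  have hNQ := fixesQuad_mono hN.le hH
  have hcomm : ∀ x ∈ N, ∀ y ∈ N, x * y * x⁻¹ * y⁻¹ ∈ scalars ι F := by
    intro x hx y hy
    have := hab (Subgroup.commutator_mem_commutator hx hy)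
    rwa [commutatorElement_def] at this
  obtain ⟨h2, -, hx4, -, hcard2⟩ := Cfsg.Agent.Lib.Helper91.Sp.es_core (by omega)
    hQ.polar_bilinear hQ.nondegenerate (fixesForm_polar hNQ) henv hcomm
  have h1 := Cfsg.Agent.Lib.Helper96.Asch.card_eq_sq_mul N hcomm henv
  rw [hcard2] at h1
  have hp : IsPGroup 2 N := fun x => ⟨2, Subtype.ext (hx4 x.1 x.2)⟩
  obtain ⟨j, hj⟩ := hp.exists_card_eq
  rw [h1, hι] at hj
  have h3 : 3 ∣ 2 ^ j := by rw [← hj]; norm_num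
  have := Nat.Prime.dvd_of_dvd_pow Nat.prime_three h3
  omega

/-- K2 (assembly): no tensor induced case in dimension 12 -/
theorem o_components12 [Fintype F] (hι : Fintype.card ι = 12) {H : Subgroup (GL ι F)} (hQP : QP H)
    {t : ℕ} (ht : 2 ≤ t) (P : Fin t → Subgroup (GL ι F)) (hPH : ∀ i, P i ≤ H)
    (hcomm : ∀ i j, i ≠ j → ∀ x ∈ P i, ∀ y ∈ P j, x * y = y * x)
    (hperm : ∀ h ∈ H, ∃ σ : Equiv.Perm (Fin t), ∀ i,
      (P i).map (MulAut.conj h).toMonoidHom = P (σ i))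
    (htrans : ∀ i j, ∃ h ∈ H, (P i).map (MulAut.conj h).toMonoidHom = P j)
    (hns : ∀ i, ¬ P i ≤ scalars ι F) : False := by
  have : Nonempty ι := Fintype.card_pos_iff.1 (by omega)
  obtain ⟨m, e, -, -⟩ := tensor_structure_of_family hQP ht P hPH hcomm hperm htrans hns
  have hc : m ^ t = 12 := by
    have := Fintype.card_congr e
    rw [hι] at this
    simpa using this.symm
  obtain ⟨s, rfl⟩ : ∃ s, t = s + 2 := ⟨t - 2, by omega⟩
  have hm : m ^ 2 ∣ 12 := by rw [← hc, pow_add, mul_comm]; exact Dvd.intro _ rfl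
  have hm3 : m ≤ 3 := by
    by_contra hcon
    have : 16 ≤ m ^ 2 := by nlinarith
    have := Nat.le_of_dvd (by norm_num) hm
    omega
  interval_cases m
  · simp at hc
  · simp at hc
  · have h3 : 3 ∣ 2 ^ (s + 2) := by rw [hc]; norm_num
    have := Nat.Prime.dvd_of_dvd_pow Nat.prime_three h3
    omega
  · norm_num at hm

/-- M (assembly) -/
theorem core12 [Fintype F] (hι : Fintype.card ι = 12)
    (hQ : IsNondegenerateQuadraticForm Q) (hplus : IsPlusTypeOn Q ⊤) (H : Subgroup (GL ι F))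
    (hHΩ : H ≤ omegaGL Q) :
    RawP Q H ∨ InOrthogonalResidualClass H := by
  have hH := fixesQuad_of_le_omega hHΩ
  rcases o_qp12 hι hQ hplus hHΩ with h | ⟨hirr, hQP⟩
  · exact Or.inl h
  have hι2 : 2 ≤ Fintype.card ι := by omega
  obtain ⟨N, hN⟩ := Cfsg.Agent.Lib.Helper60.Asch.exists_minNormal H (not_scalar_of_irr hι2 hirr)
  have henv : env N = ⊤ := (hQP N hN.le hN.nrm).resolve_left hN.not_sc
  by_cases hab : ⁅N, N⁆ ≤ scalars ι F
  · exact (o_c6_12 hι hQ hH hN henv hab).elim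
  · by_cases hs : ∀ L : Subgroup (GL ι F), H ⊓ scalars ι F ≤ L → L ≤ N → Nrm N L →
      L = H ⊓ scalars ι F ∨ L = N
    · rcases o_simple hι2 hQ hH hirr hQP hN hab hs with h | h
      · exact Or.inl (Or.inr (Or.inr (Or.inr (Or.inr (Or.inr (Or.inr (Or.inr h)))))))
      · exact Or.inr h
    · obtain ⟨t, P, ht, h1, h2, h3, h4, h5, h6⟩ :=
        Cfsg.Agent.Lib.Helper12.Asch.exists_family hN hab hs
      exact (o_components12 hι hQP ht P h1 h2 h3 h4 h5).elim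

end Cfsg.Agent.Lib.Helper99.OE
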