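import Cfsg.Agent.Lib.Helper99.OE.Core12
import Cfsg.Agent.Lib.Helper22.OE.YM3
import Cfsg.Agent.Lib.Helper22.OE.YL3
import Cfsg.Agent.Lib.Helper57.OE.Halves
import Cfsg.Agent.Lib.Helper30.OE.G11
import Cfsg.Agent.Lib.Helper8.OE.G8
import Cfsg.Agent.Lib.Helper84.OE.YBF
import Cfsg.Agent.Lib.Helper81.OE.YF1
import Cfsg.Agent.Lib.Helper81.OE.YP4
import Cfsg.Agent.Lib.Helper81.OE.YP4a
import Cfsg.Agent.Lib.Helper90.OE.YP23
import Cfsg.Agent.Lib.Helper35.OE.YQ2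
import Cfsg.Agent.Lib.Helper51.OE.F5
import Cfsg.Agent.Lib.Helper90.OE.NotLe

set_option autoImplicit false
set_option linter.unusedSectionVars false

/-! # Maximal subgroups of `Ω₁₂⁺(q)`: the row -/

namespace Cfsg.Agent.Lib.Helper99.OE

open Cfsg Cfsg.Geo Matrix Cfsg.Agent.Lib.Helper13.Asch Cfsg.Agent.Lib.Helper90.Sp
open Cfsg.Agent.Lib.Helper1.Sp
open Cfsg.Agent.Lib.Helper37.OE Cfsg.Agent.Lib.Helper96.OE Cfsg.Agent.Lib.Helper98.OE
open Cfsg.Agent.Lib.Helper86.OE Cfsg.Agent.Lib.Helper35.OE Cfsg.Agent.Lib.Helper57.OE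
open Cfsg.Agent.Lib.Helper90.OE Cfsg.Agent.Lib.Helper51.OE
open Cfsg.Agent.Lib.Helper30.OE Cfsg.Agent.Lib.Helper8.OE Cfsg.Agent.Lib.Helper84.OE
open Cfsg.Agent.Lib.Helper81.OE Cfsg.Agent.Lib.Helper22.OE
open scoped Kronecker MatrixGroups

/-- the conclusion of the row -/
def G12 {F : Type*} [Field F] [Fintype F] (Q : (Fin 12 → F) → F)
    (H : Subgroup (Matrix.GeneralLinearGroup (Fin 12) F)) : Prop :=
    (∃ W : Submodule F (Fin 12 → F), W ≠ ⊥ ∧ Cfsg.Geo.IsTotallySingularQuad Q W ∧ Module.finrank F W ≠ 5 ∧ H = Cfsg.Geo.subspaceStabilizer W ⊓ Cfsg.Geo.omegaGL Q) ∨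
    (Odd (Fintype.card F) ∧ ∃ W : Submodule F (Fin 12 → F), W ≠ ⊥ ∧ W ≠ ⊤ ∧ Odd (Module.finrank F W) ∧ 2 * Module.finrank F W ≠ 12 ∧ Cfsg.Geo.IsNondegenerateOn (QuadraticMap.polar Q) W ∧ H = Cfsg.Geo.subspaceStabilizer W ⊓ Cfsg.Geo.omegaGL Q) ∨
    (∃ W : Submodule F (Fin 12 → F), Module.finrank F W = 2 ∧ Cfsg.Geo.IsNondegenerateOn (QuadraticMap.polar Q) W ∧ ¬ Cfsg.Geo.IsPlusTypeOn Q W ∧ H = Cfsg.Geo.subspaceStabilizer W ⊓ Cfsg.Geo.omegaGL Q) ∨
    (4 ≤ Fintype.card F ∧ ∃ W : Submodule F (Fin 12 → F), Module.finrank F W = 2 ∧ Cfsg.Geo.IsNondegenerateOn (QuadraticMap.polar Q) W ∧ Cfsg.Geo.IsPlusTypeOn Q W ∧ H = Cfsg.Geo.subspaceStabilizer W ⊓ Cfsg.Geo.omegaGL Q) ∨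
    (∃ W : Submodule F (Fin 12 → F), Module.finrank F W = 4 ∧ Cfsg.Geo.IsNondegenerateOn (QuadraticMap.polar Q) W ∧ H = Cfsg.Geo.subspaceStabilizer W ⊓ Cfsg.Geo.omegaGL Q) ∨
    (¬ Odd (Fintype.card F) ∧ ∃ v : (Fin 12 → F), Q v ≠ 0 ∧ H = Cfsg.Geo.subspaceStabilizer (Submodule.span F {v}) ⊓ Cfsg.Geo.omegaGL Q) ∨
    ((∃ p : ℕ, p.Prime ∧ Odd p ∧ Fintype.card F = p) ∧ ∃ D : Fin 12 → Submodule F (Fin 12 → F), Cfsg.Geo.IsOrthogonalMDecomposition Q 1 D ∧ H = Cfsg.Geo.decompositionStabilizer D ⊓ Cfsg.Geo.omegaGL Q) ∨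
    (7 ≤ Fintype.card F ∧ ∃ D : Fin 6 → Submodule F (Fin 12 → F), Cfsg.Geo.IsOrthogonalMDecomposition Q 2 D ∧ (∀ i, Cfsg.Geo.IsPlusTypeOn Q (D i)) ∧ H = Cfsg.Geo.decompositionStabilizer D ⊓ Cfsg.Geo.omegaGL Q) ∨
    (Fintype.card F ≠ 3 ∧ ∃ D : Fin 6 → Submodule F (Fin 12 → F), Cfsg.Geo.IsOrthogonalMDecomposition Q 2 D ∧ (∀ i, ¬ Cfsg.Geo.IsPlusTypeOn Q (D i)) ∧ H = Cfsg.Geo.decompositionStabilizer D ⊓ Cfsg.Geo.omegaGL Q) ∨
    (Odd (Fintype.card F) ∧ 5 ≤ Fintype.card F ∧ ∃ D : Fin 4 → Submodule F (Fin 12 → F), Cfsg.Geo.IsOrthogonalMDecomposition Q 3 D ∧ H = Cfsg.Geo.decompositionStabilizer D ⊓ Cfsg.Geo.omegaGL Q) ∨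
    (3 ≤ Fintype.card F ∧ ∃ D : Fin 3 → Submodule F (Fin 12 → F), Cfsg.Geo.IsOrthogonalMDecomposition Q 4 D ∧ H = Cfsg.Geo.decompositionStabilizer D ⊓ Cfsg.Geo.omegaGL Q) ∨
    (∃ D : Fin 2 → Submodule F (Fin 12 → F), Cfsg.Geo.IsOrthogonalMDecomposition Q 6 D ∧ H = Cfsg.Geo.decompositionStabilizer D ⊓ Cfsg.Geo.omegaGL Q) ∨
    (∃ D : Fin 2 → Submodule F (Fin 12 → F), Cfsg.Geo.IsMDecomposition 6 D ∧ (∀ i, Cfsg.Geo.IsTotallySingularQuad Q (D i)) ∧ H = Cfsg.Geo.decompositionStabilizer D ⊓ Cfsg.Geo.omegaGL Q) ∨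
    (∃ K : Subalgebra F (Matrix (Fin 12) (Fin 12) F), Cfsg.Geo.IsFieldSubalgebra 2 K ∧ H = Cfsg.Geo.subalgebraNormalizer K ⊓ Cfsg.Geo.omegaGL Q) ∨
    (∃ K : Subalgebra F (Matrix (Fin 12) (Fin 12) F), Cfsg.Geo.IsFieldSubalgebra 3 K ∧ H = Cfsg.Geo.subalgebraNormalizer K ⊓ Cfsg.Geo.omegaGL Q) ∨
    (∃ K : Subalgebra F (Matrix (Fin 12) (Fin 12) F), Cfsg.Geo.IsFieldSubalgebra 2 K ∧ Cfsg.Geo.IsAdjointClosedFor (QuadraticMap.polar Q) K ∧ ¬ Cfsg.Geo.IsSelfAdjointFor (QuadraticMap.polar Q) K ∧ (∀ k ∈ K, ∃ c : F, ∀ v : (Fin 12 → F), Q (Matrix.mulVec k v) = c * Q v) ∧ H = Cfsg.Geo.subalgebraNormalizer K ⊓ Cfsg.Geo.omegaGL Q) ∨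
    (3 ≤ Fintype.card F ∧ ∃ (e : Fin 12 ≃ Fin 2 × Fin 6) (P : Matrix.GeneralLinearGroup (Fin 12) F) (f₁ : (Fin 2 → F) → (Fin 2 → F) → F) (f₂ : (Fin 6 → F) → (Fin 6 → F) → F), Cfsg.Geo.IsSymplecticForm f₁ ∧ Cfsg.Geo.IsSymplecticForm f₂ ∧ Cfsg.Geo.IsTensorFormStructure id (QuadraticMap.polar Q) f₁ f₂ e P ∧ (∀ (x₁ : Fin 2 → F) (x₂ : Fin 6 → F), Q (Matrix.mulVec (P : Matrix (Fin 12) (Fin 12) F) ((fun a : Fin 2 × Fin 6 => x₁ a.1 * x₂ a.2) ∘ e)) = 0) ∧ H = Cfsg.Geo.tensorProductSubgroup 2 6 e P ⊓ Cfsg.Geo.omegaGL Q) ∨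
    (∃ (F₀ : Subfield F) (r : ℕ) (P : Matrix.GeneralLinearGroup (Fin 12) F) (ζ : F), r.Prime ∧ Fintype.card F = Nat.card F₀ ^ r ∧ ζ ≠ 0 ∧ Cfsg.Geo.IsQuadFormRationalStructure (fun v : Fin 12 → F => ζ * Q v) F₀ P ∧ H = Cfsg.Geo.subfieldSubgroup F₀ P ⊓ Cfsg.Geo.omegaGL Q) ∨
    Cfsg.Geo.InOrthogonalResidualClass H

variable {F : Type*} [Field F] [Fintype F] {Q : (Fin 12 → F) → F} {H : Subgroup (GL (Fin 12) F)}

theorem g_sing (hQ : IsNondegenerateQuadraticForm Q) (hplus : IsPlusTypeOn Q ⊤)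
    (hH : IsMaximalIn (omegaGL Q) H) (h : RSing Q H) : G12 Q H := by
  obtain ⟨W, h0, hW, hle⟩ := h
  unfold G12
  left
  by_cases h5 : Module.finrank F W = 5
  · obtain ⟨U, hU, hWU, hleU⟩ := sing_codim_one (by simp) hQ hplus hH.1.le W hW
      (by rw [h5]; simp) hle
    have hU6 : Module.finrank F U = 6 := by
      have := hU.2
      simp at this
      omega
    have hU0 : U ≠ ⊥ := by
      rintro rfl
      simp at hU6
    exact ⟨U, hU0, hU.1, by omega, eq_inf_of_maximal hH hleU (not_le_sing hQ (by simp) U hU0 hU.1)⟩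
  · exact ⟨W, h0, hW, h5, eq_inf_of_maximal hH hle (not_le_sing hQ (by simp) W h0 hW)⟩

theorem g_ndout (hQ : IsNondegenerateQuadraticForm Q) (hplus : IsPlusTypeOn Q ⊤)
    (hH : IsMaximalIn (omegaGL Q) H) (h : NdOut Q H) : G12 Q H := by
  have hfix := fixesQuad_of_le_omega hH.1.le
  unfold G12
  rcases h with ⟨hodd, W, h0, h1, hW, hnd, heq⟩ | h | h | ⟨W, h4, hev, hhalf, hnd, heq⟩ | h
  · exact Or.inr (Or.inl ⟨hodd, W, h0, h1, hW, by obtain ⟨m, hm⟩ := hW; omega, hnd, heq⟩)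
  · exact Or.inr (Or.inr (Or.inl h))
  · exact Or.inr (Or.inr (Or.inr (Or.inl h)))
  · rw [Fintype.card_fin] at hhalf
    have h46 : Module.finrank F W = 4 ∨ Module.finrank F W = 6 := by
      obtain ⟨m, hm⟩ := hev
      omega
    rcases h46 with h46 | h46
    · exact Or.inr (Or.inr (Or.inr (Or.inr (Or.inl ⟨W, h46, hnd, heq⟩))))
    · have hle : H ≤ subspaceStabilizer W := by rw [heq]; exact inf_le_left
      obtain ⟨D, hD, hleD⟩ := halves_decomp hQ hplus hfix W hnd h46 (by norm_num) (by decide)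
        (by simp) hle
      iterate 11 right
      left
      exact ⟨D, hD, eq_inf_of_maximal hH hleD (omega_not_le_orthDecomp hQ (by simp) D hD)⟩
  · exact Or.inr (Or.inr (Or.inr (Or.inr (Or.inr (Or.inl h)))))

theorem g_nd (hQ : IsNondegenerateQuadraticForm Q) (hplus : IsPlusTypeOn Q ⊤)
    (hH : IsMaximalIn (omegaGL Q) H) (h : RNd Q H) : G12 Q H :=
  g_ndout hQ hplus hH (nd_out hQ (by simp) hH h)

theorem g_vec (hQ : IsNondegenerateQuadraticForm Q) (hplus : IsPlusTypeOn Q ⊤)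
    (hH : IsMaximalIn (omegaGL Q) H) (h : RVec Q H) : G12 Q H :=
  g_ndout hQ hplus hH (vec_out hQ (by simp) hH h)

theorem g_sub (hQ : IsNondegenerateQuadraticForm Q)
    (hH : IsMaximalIn (omegaGL Q) H) (h : RSub Q H) : G12 Q H := by
  obtain ⟨F₀, r, P, ζ, hr, hc, hζ, hP, hle⟩ := h
  unfold G12
  iterate 17 right
  left
  exact ⟨F₀, r, P, ζ, hr, hc, hζ, hP,
    eq_inf_of_maximal hH hle (not_le_subfield hQ (by simp) F₀ r hr hc P ζ hζ hP)⟩

theorem g_lines (hQ : IsNondegenerateQuadraticForm Q)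
    (hH : IsMaximalIn (omegaGL Q) H) (D : Fin 12 → Submodule F (Fin 12 → F))
    (hD : IsOrthogonalMDecomposition Q 1 D) (hle : H ≤ decompositionStabilizer D) : G12 Q H := by
  have hfix := fixesQuad_of_le_omega hH.1.le
  have hodd : Odd (Fintype.card F) := odd_card_of_odd_nondeg hQ (D 0) (hD.decomp.nondegenerate 0)
    (by rw [hD.decomp.decomp.finrank_eq]; exact odd_one)
  by_cases hp : (Fintype.card F).Prime
  · unfold G12
    iterate 6 right
    left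
    exact ⟨⟨_, hp, hodd, rfl⟩, D, hD,
      eq_inf_of_maximal hH hle (omega_not_le_orthDecomp hQ (by simp) D hD)⟩
  · exact g_sub hQ hH (rsub_of_lines hQ hfix D hD hle hp)

theorem g_minus_planes (hQ : IsNondegenerateQuadraticForm Q)
    (hH : IsMaximalIn (omegaGL Q) H) (D : Fin 6 → Submodule F (Fin 12 → F))
    (hD : IsOrthogonalMDecomposition Q 2 D) (hm : ∀ i, ¬ IsPlusTypeOn Q (D i))
    (hle : H ≤ decompositionStabilizer D) : G12 Q H := by
  have hfix := fixesQuad_of_le_omega hH.1.le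
  by_cases hq : Fintype.card F = 3
  · have h20 : (2 : F) ≠ 0 := fun h => (two_eq_zero_iff.1 h) (by rw [hq]; decide)
    obtain ⟨b, hb, horth, hall⟩ := plane_minus_three_local hq hQ (D 0) (hD.decomp.nondegenerate 0)
      (hD.decomp.decomp.finrank_eq 0) (hm 0)
    obtain ⟨D', hD', hle'⟩ := lines_of_block_frame h20 hQ hfix D hD hle (Fintype.card_fin 12) 0 1
      one_ne_zero b hb horth hall
    exact g_lines hQ hH D' hD' hle'
  · unfold G12
    iterate 8 right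
    left
    exact ⟨hq, D, hD, hm, eq_inf_of_maximal hH hle (omega_not_le_orthDecomp hQ (by simp) D hD)⟩

theorem card_ne_six : Fintype.card F ≠ 6 := by
  intro h
  have h1 := FiniteField.isPrimePow_card F
  rw [h] at h1
  revert h1
  rw [isPrimePow_nat_iff_bounded]
  decide

theorem g_plus_planes (hQ : IsNondegenerateQuadraticForm Q) (hplus : IsPlusTypeOn Q ⊤)
    (hH : IsMaximalIn (omegaGL Q) H) (D : Fin 6 → Submodule F (Fin 12 → F))
    (hD : IsOrthogonalMDecomposition Q 2 D) (hp : ∀ i, IsPlusTypeOn Q (D i))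
    (hle : H ≤ decompositionStabilizer D) : G12 Q H := by
  have hfix := fixesQuad_of_le_omega hH.1.le
  by_cases hq : 7 ≤ Fintype.card F
  · unfold G12
    iterate 7 right
    left
    exact ⟨hq, D, hD, hp, eq_inf_of_maximal hH hle (omega_not_le_orthDecomp hQ (by simp) D hD)⟩
  · have h1 : 1 < Fintype.card F := Fintype.one_lt_card
    have h6 := card_ne_six (F := F)
    have hcases : Fintype.card F = 2 ∨ Fintype.card F = 3 ∨ Fintype.card F = 4 ∨
        Fintype.card F = 5 := by omega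
    rcases hcases with hq | hq | hq | hq
    · rcases planes_plus_two hq hQ hfix D hD hp hle with h | h
      · exact g_sing hQ hplus hH h
      · exact g_vec hQ hplus hH h
    · exact g_nd hQ hplus hH (planes_plus_three hq hQ hfix D hD hp hle)
    · exact g_sub hQ hH (planes_plus_four hq hQ hfix D hD hp hle)
    · have h20 : (2 : F) ≠ 0 := fun h => (two_eq_zero_iff.1 h) (by rw [hq]; decide)
      obtain ⟨b, hb, horth, hall⟩ := plane_plus_five_local hq hQ (D 0) (hD.decomp.nondegenerate 0)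
        (hD.decomp.decomp.finrank_eq 0) (hp 0)
      obtain ⟨D', hD', hle'⟩ := lines_of_block_frame h20 hQ hfix D hD hle (Fintype.card_fin 12) 0 1
        one_ne_zero b hb horth hall
      exact g_lines hQ hH D' hD' hle'

theorem g_dec (hQ : IsNondegenerateQuadraticForm Q) (hplus : IsPlusTypeOn Q ⊤)
    (hH : IsMaximalIn (omegaGL Q) H) (h : RDec Q H) : G12 Q H := by
  have hfix := fixesQuad_of_le_omega hH.1.le
  obtain ⟨t, k, D, hD, hle⟩ := h
  have h1 := Cfsg.Agent.Lib.Helper55.Asch.card_of_decomp D hD.decomp.decomp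
  rw [Fintype.card_fin] at h1
  have h2 := hD.decomp.decomp.two_le
  have heq := eq_inf_of_maximal hH hle (omega_not_le_orthDecomp hQ (by simp) D hD)
  have ht12 : t ∣ 12 := ⟨k, h1.symm⟩
  have hle12 : t ≤ 12 := Nat.le_of_dvd (by norm_num) ht12
  have hcases : (t = 2 ∧ k = 6) ∨ (t = 3 ∧ k = 4) ∨ (t = 4 ∧ k = 3) ∨ (t = 6 ∧ k = 2) ∨
      (t = 12 ∧ k = 1) := by
    interval_cases t <;> omega
  rcases hcases with ⟨rfl, rfl⟩ | ⟨rfl, rfl⟩ | ⟨rfl, rfl⟩ | ⟨rfl, rfl⟩ | ⟨rfl, rfl⟩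
  · unfold G12
    iterate 11 right
    left
    exact ⟨D, hD, heq⟩
  · by_cases hq : 3 ≤ Fintype.card F
    · unfold G12
      iterate 10 right
      left
      exact ⟨hq, D, hD, heq⟩
    · have hq2 : Fintype.card F = 2 := by
        have h1 : 1 < Fintype.card F := Fintype.one_lt_card
        omega
      obtain ⟨D', hD', hm', hle'⟩ := four_plus_two hq2 hQ hfix (n := 6) (by norm_num) D hD
        (fun i => plus_block_of_three hQ hplus (by decide) D hD i) hle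
      exact g_minus_planes hQ hH D' hD' hm' hle'
  · have hodd : Odd (Fintype.card F) := odd_card_of_odd_nondeg hQ (D 0)
      (hD.decomp.nondegenerate 0) (by rw [hD.decomp.decomp.finrank_eq]; decide)
    by_cases hq : 5 ≤ Fintype.card F
    · unfold G12
      iterate 9 right
      left
      exact ⟨hodd, hq, D, hD, heq⟩
    · have hq3 : Fintype.card F = 3 := by
        have h1 : 1 < Fintype.card F := Fintype.one_lt_card
        obtain ⟨m, hm⟩ := hodd
        omega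
      have h20 : (2 : F) ≠ 0 := fun h => (two_eq_zero_iff.1 h) hodd
      obtain ⟨c, b, hc, hb, horth, hall⟩ := three_space_three_local hq3 hQ (D 0)
        (hD.decomp.nondegenerate 0) (hD.decomp.decomp.finrank_eq 0)
      obtain ⟨D', hD', hle'⟩ := lines_of_block_frame h20 hQ hfix D hD hle (Fintype.card_fin 12) 0 c
        hc b hb horth hall
      exact g_lines hQ hH D' hD' hle'
  · by_cases hp : IsPlusTypeOn Q (D 0)
    · exact g_plus_planes hQ hplus hH D hD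
        (fun i => plus_of_isometric (hD.isometric 0 i) hp) hle
    · exact g_minus_planes hQ hH D hD
        (fun i hi => hp (plus_of_isometric (hD.isometric i 0) hi)) hle
  · exact g_lines hQ hH D hD hle

theorem g_pair (hQ : IsNondegenerateQuadraticForm Q)
    (hH : IsMaximalIn (omegaGL Q) H) (h : RPair Q H) : G12 Q H := by
  obtain ⟨k, D, hD, hts, hle⟩ := h
  have h1 := Cfsg.Agent.Lib.Helper55.Asch.card_of_decomp D hD
  rw [Fintype.card_fin] at h1
  have hk : k = 6 := by omega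
  subst hk
  unfold G12
  iterate 12 right
  left
  exact ⟨D, hD, hts, eq_inf_of_maximal hH hle
    (omega_not_le_decomp_big hQ (by simp) (by norm_num) D hD)⟩

theorem g_field (hQ : IsNondegenerateQuadraticForm Q)
    (hH : IsMaximalIn (omegaGL Q) H) (h : RField H) : G12 Q H := by
  obtain ⟨r, K, hr, hK, hle⟩ := h
  have h1 := Cfsg.Agent.Lib.Helper58.Asch.dvd_card_of_field K hK
  rw [Fintype.card_fin] at h1
  have heq := eq_inf_of_maximal hH hle (not_le_field hQ (by simp) hr K hK)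
  have hr23 : r = 2 ∨ r = 3 := by
    have hle12 : r ≤ 12 := Nat.le_of_dvd (by norm_num) h1
    have h2 := hr.two_le
    interval_cases r <;> first | omega | (exfalso; revert hr; decide)
  unfold G12
  rcases hr23 with rfl | rfl
  · iterate 13 right
    left
    exact ⟨K, hK, heq⟩
  · iterate 14 right
    left
    exact ⟨K, hK, heq⟩

theorem g_alt (hQ : IsNondegenerateQuadraticForm Q)
    (hH : IsMaximalIn (omegaGL Q) H) (h : RAlt Q H) : G12 Q H := by
  obtain ⟨b, e, P, f₁, f₂, hf1, hf2, hT, hpure, hle⟩ := h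
  have hb : b = 6 := by
    have := Fintype.card_congr e
    simp at this
    omega
  subst hb
  by_cases hq : 3 ≤ Fintype.card F
  · unfold G12
    iterate 16 right
    left
    exact ⟨hq, e, P, f₁, f₂, hf1, hf2, hT, hpure, eq_inf_of_maximal hH hle
      (omega_not_le_tensor hQ (by simp) (by norm_num) (by norm_num) e P)⟩
  · have hq2 : Fintype.card F = 2 := by
      have h1 : 1 < Fintype.card F := Fintype.one_lt_card
      omega
    obtain ⟨K, hK, hK'⟩ := Cfsg.Agent.Lib.Helper13.Asch.tensor_two_field hq2 (by norm_num) e P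
    exact g_field hQ hH ⟨2, K, Nat.prime_two, hK, hle.trans hK'⟩

theorem row12plus (Q : (Fin 12 → F) → F) (hQ : IsNondegenerateQuadraticForm Q)
    (hplus : IsPlusTypeOn Q ⊤) (H : Subgroup (GL (Fin 12) F))
    (hH : IsMaximalIn (omegaGL Q) H) : G12 Q H := by
  rcases core12 (Fintype.card_fin 12) hQ hplus H hH.1.le with h | h
  · rcases h with h | h | ⟨-, h⟩ | h | h | h | h | h
    · exact g_sing hQ hplus hH h
    · exact g_nd hQ hplus hH h
    · exact g_vec hQ hplus hH h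
    · exact g_dec hQ hplus hH h
    · exact g_pair hQ hH h
    · exact g_field hQ hH h
    · exact g_alt hQ hH h
    · exact g_sub hQ hH h
  · unfold G12
    iterate 18 right
    exact h

end Cfsg.Agent.Lib.Helper99.OE
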